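import Mathlib
import Cfsg.Prelude.Def_GeometricClasses
import Cfsg.Prelude.Def_Classical
import Cfsg.Prelude.Def_LieClassical

/-!
# USIM (S5982): interface file

`PSL_n(q)`, `q = q₀²`, and the similarity group of a unitary form.  All package statements are
closed `Prop`s, universe polymorphic in the field.
-/

set_option autoImplicit false
open scoped MatrixGroups

namespace Cfsg.Agent.Lib.Helper85.USim

universe u

/-- The similarity group of the standard hermitian form `Σ uᵢ vᵢ^q₀`. -/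
abbrev HU (n : ℕ) (F : Type u) [Field F] (q₀ : ℕ) : Subgroup (GL (Fin n) F) :=
  Cfsg.Geo.similarityGroup (Cfsg.hermForm n F q₀)

/-- `SL_n(F)` as a subgroup of `GL_n(F)`. -/
abbrev SLn (n : ℕ) (F : Type u) [Field F] : Subgroup (GL (Fin n) F) :=
  Cfsg.Geo.specialLinear (Fin n) F

/-- An element of order `r` modulo scalars of `SL_n(F)` with no `SL`-conjugate in `HU`. -/
def HasDerU (F : Type u) [Field F] (q₀ r n : ℕ) : Prop :=
  ∃ x ∈ SLn n F,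
    (∃ z : F, ((x ^ r : GL (Fin n) F) : Matrix (Fin n) (Fin n) F) =
      z • (1 : Matrix (Fin n) (Fin n) F)) ∧
    (∀ z : F, (x : Matrix (Fin n) (Fin n) F) ≠ z • (1 : Matrix (Fin n) (Fin n) F)) ∧
    ∀ g ∈ SLn n F, g⁻¹ * x * g ∉ HU n F q₀

/-- **[MEM]** matrix form of membership in `HU`: `Yᵀ · Y^σ = τ`. -/
def PMem : Prop :=
  ∀ {F : Type u} [Field F] [Fintype F] (q₀ n : ℕ), Fintype.card F = q₀ ^ 2 →
    ∀ Y : GL (Fin n) F, Y ∈ HU n F q₀ ↔
      ∃ τ : F, τ ≠ 0 ∧ (Y : Matrix (Fin n) (Fin n) F).transpose *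
        (Y : Matrix (Fin n) (Fin n) F).map (fun a => a ^ q₀) =
          τ • (1 : Matrix (Fin n) (Fin n) F)

/-- **[STD]** every unitary form is equivalent to the standard one. -/
def PStd : Prop :=
  ∀ {F : Type u} [Field F] [Fintype F] (q₀ n : ℕ), Fintype.card F = q₀ ^ 2 →
    ∀ f : (Fin n → F) → (Fin n → F) → F, Cfsg.Geo.IsUnitaryFormPow q₀ f →
      ∃ P : GL (Fin n) F, ∀ u v : Fin n → F,
        f ((P : Matrix (Fin n) (Fin n) F).mulVec u) ((P : Matrix (Fin n) (Fin n) F).mulVec v) =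
          Cfsg.hermForm n F q₀ u v

/-- **[RED]** transfer of the similarity group and of the index along an equivalence. -/
def PRed : Prop :=
  ∀ {F : Type u} [Field F] [Fintype F] (q₀ n : ℕ) (f : (Fin n → F) → (Fin n → F) → F)
    (P : GL (Fin n) F),
    (∀ u v : Fin n → F,
      f ((P : Matrix (Fin n) (Fin n) F).mulVec u) ((P : Matrix (Fin n) (Fin n) F).mulVec v) =
        Cfsg.hermForm n F q₀ u v) →
    (∀ g : GL (Fin n) F, g ∈ Cfsg.Geo.similarityGroup f ↔ P⁻¹ * g * P ∈ HU n F q₀) ∧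
    (Cfsg.Geo.similarityGroup f).relIndex (SLn n F) = (HU n F q₀).relIndex (SLn n F)

/-- **[IDX]** a prime `r ∤ q₀` dividing the index divides some `q₀^i + (-1)^i`, `1 ≤ i ≤ n`. -/
def PIdx : Prop :=
  ∀ {F : Type u} [Field F] [Fintype F] (q₀ n r : ℕ) [Fact r.Prime], Fintype.card F = q₀ ^ 2 →
    ((q₀ : ℕ) : ZMod r) ≠ 0 → r ∣ (HU n F q₀).relIndex (SLn n F) →
    ∃ i : ℕ, 1 ≤ i ∧ i ≤ n ∧ (-((q₀ : ℕ) : ZMod r)) ^ i = -1

/-- **[RANK]** twisted rank symmetry of elements conjugate into `HU`. -/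
def PRank : Prop :=
  ∀ {F : Type u} [Field F] [Fintype F] (q₀ n : ℕ), Fintype.card F = q₀ ^ 2 →
    ∀ x g : GL (Fin n) F, g⁻¹ * x * g ∈ HU n F q₀ →
      ∃ κ : F, κ ≠ 0 ∧ ∀ μ : F,
        ((x : Matrix (Fin n) (Fin n) F) - μ • (1 : Matrix (Fin n) (Fin n) F)).rank =
          ((x : Matrix (Fin n) (Fin n) F) -
            (κ * (μ ^ q₀)⁻¹) • (1 : Matrix (Fin n) (Fin n) F)).rank

/-- **[EXP]** exponent symmetry of diagonal elements conjugate into `HU`. -/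
def PExp : Prop :=
  ∀ {F : Type u} [Field F] [Fintype F] (q₀ n r : ℕ) [Fact r.Prime], Fintype.card F = q₀ ^ 2 →
    1 ≤ n → ∀ ω : F, IsPrimitiveRoot ω r → ∀ c : F, c ≠ 0 → ∀ e : Fin n → ZMod r,
    ∀ x g : GL (Fin n) F,
      (x : Matrix (Fin n) (Fin n) F) = Matrix.diagonal (fun j => c * ω ^ (e j).val) →
      g⁻¹ * x * g ∈ HU n F q₀ →
      ∃ s : ZMod r, ∀ u : ZMod r,
        Nat.card {j // e j = u} = Nat.card {j // e j = s + (-((q₀ : ℕ) : ZMod r)) * u}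

/-- **[DER]** the three diagonal derangement patterns. -/
def PDer : Prop :=
  ∀ {F : Type u} [Field F] [Fintype F] (q₀ r : ℕ) [Fact r.Prime], Fintype.card F = q₀ ^ 2 →
    ∀ ω : F, IsPrimitiveRoot ω r → (-((q₀ : ℕ) : ZMod r)) ≠ 1 → ∀ m : ℕ,
      (5 ≤ r → ¬ (m = 2 ∧ r = 5) → HasDerU F q₀ r (m + 3)) ∧
      (∀ c : F, c ^ (m + 3) * ω = 1 → HasDerU F q₀ r (m + 3)) ∧
      (r = 3 → m ≠ 0 → m ≠ 3 → HasDerU F q₀ r (m + 3))

/-- **[CHAR]** the characteristic polynomial of an element of order `r` conjugate into `HU`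
is twisted self-reciprocal (when `F` has no non-trivial `r`-th roots of unity). -/
def PChar : Prop :=
  ∀ {F : Type u} [Field F] [Fintype F] (q₀ n r : ℕ), Fintype.card F = q₀ ^ 2 →
    (∀ z : F, z ^ r = 1 → z = 1) → ∀ σ : F →+* F, (∀ a : F, σ a = a ^ q₀) →
    ∀ x g : GL (Fin n) F, (x : Matrix (Fin n) (Fin n) F) ^ r = 1 →
      (x : Matrix (Fin n) (Fin n) F).det = 1 → g⁻¹ * x * g ∈ HU n F q₀ →
      (x : Matrix (Fin n) (Fin n) F).charpoly.map σ =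
        Polynomial.C ((-1 : F) ^ n) * (x : Matrix (Fin n) (Fin n) F).charpoly.reverse

/-- **[ROOT]** field theory: an irreducible factor `π` of `X^r - 1` over `F_q`, `q = q₀²`, of
degree `ord_r(q) ≥ 2`, with `π^σ` associated to the reciprocal of `π`, forces
`(-q₀)^(ord_r q) = 1` in `ZMod r`. -/
def PRoot : Prop :=
  ∀ {F : Type u} [Field F] [Fintype F] (q₀ r : ℕ) [Fact r.Prime], Fintype.card F = q₀ ^ 2 →
    ((q₀ : ℕ) : ZMod r) ≠ 0 → ∀ σ : F →+* F, (∀ a : F, σ a = a ^ q₀) →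
    ∀ π : Polynomial F, π.Monic → Irreducible π → π ∣ (Polynomial.X ^ r - 1 : Polynomial F) →
      π.natDegree = orderOf (((q₀ ^ 2 : ℕ) : ℕ) : ZMod r) → 2 ≤ π.natDegree →
      Associated (π.map σ) π.reverse →
      (-((q₀ : ℕ) : ZMod r)) ^ orderOf (((q₀ ^ 2 : ℕ) : ℕ) : ZMod r) = 1

/-- **[DIRR]** the derangement with one irreducible block. -/
def PDIrr : Prop :=
  ∀ {F : Type u} [Field F] [Fintype F] (p : ℕ) [Fact p.Prime] [CharP F p] (q₀ n r : ℕ)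
    [Fact r.Prime], Fintype.card F = q₀ ^ 2 → r ≠ p →
    2 ≤ orderOf (((q₀ ^ 2 : ℕ) : ℕ) : ZMod r) → orderOf (((q₀ ^ 2 : ℕ) : ℕ) : ZMod r) ≤ n →
    (-((q₀ : ℕ) : ZMod r)) ^ orderOf (((q₀ ^ 2 : ℕ) : ℕ) : ZMod r) ≠ 1 → HasDerU F q₀ r n

/-- **[NSQ]** `x² = c` with `x` conjugate into `HU` forces `c` to be a square (odd `q`). -/
def PNSq : Prop :=
  ∀ {F : Type u} [Field F] [Fintype F] (q₀ n : ℕ), Fintype.card F = q₀ ^ 2 → (2 : F) ≠ 0 →
    1 ≤ n → ∀ (x g : GL (Fin n) F) (c : F),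
      (x : Matrix (Fin n) (Fin n) F) ^ 2 = c • (1 : Matrix (Fin n) (Fin n) F) →
      g⁻¹ * x * g ∈ HU n F q₀ → IsSquare c

/-- **[INVODD]** odd `q`: elements with `x² = b²` are `SL`-conjugate into `HU`. -/
def PInvOdd : Prop :=
  ∀ {F : Type u} [Field F] [Fintype F] (q₀ n : ℕ), Fintype.card F = q₀ ^ 2 → (2 : F) ≠ 0 →
    1 ≤ n → ∀ x ∈ SLn n F, ∀ b : F, b ≠ 0 →
      (x : Matrix (Fin n) (Fin n) F) * (x : Matrix (Fin n) (Fin n) F) =
        (b * b) • (1 : Matrix (Fin n) (Fin n) F) →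
      ∃ g ∈ SLn n F, g⁻¹ * x * g ∈ HU n F q₀

/-- **[INVEVEN]** even `q`: non-scalar elements with scalar square are `SL`-conjugate into
`HU`. -/
def PInvEven : Prop :=
  ∀ {F : Type u} [Field F] [Fintype F] (q₀ n : ℕ), Fintype.card F = q₀ ^ 2 → (2 : F) = 0 →
    2 ≤ n → ∀ x ∈ SLn n F, ∀ z : F,
      (x : Matrix (Fin n) (Fin n) F) * (x : Matrix (Fin n) (Fin n) F) =
        z • (1 : Matrix (Fin n) (Fin n) F) →
      (∀ z : F, (x : Matrix (Fin n) (Fin n) F) ≠ z • (1 : Matrix (Fin n) (Fin n) F)) →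
      ∃ g ∈ SLn n F, g⁻¹ * x * g ∈ HU n F q₀

/-- **[SPECIAL]** `n = r`, `r ∣ q₀ - 1`, symmetric multiplicities: elements of order `r` are
`SL`-conjugate into `HU`. -/
def PSpecial : Prop :=
  ∀ {F : Type u} [Field F] [Fintype F] (q₀ r : ℕ) [Fact r.Prime], Fintype.card F = q₀ ^ 2 →
    ∀ ω : F, IsPrimitiveRoot ω r → ((q₀ : ℕ) : ZMod r) = 1 →
    (∀ M : ZMod r → ℕ, ∑ u, M u = r → ∑ u, (M u : ZMod r) * u = 0 → (∀ u, M u ≠ r) →
      ∃ t : ZMod r, ∀ u, M (t + u) = M (t - u)) →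
    ∀ x ∈ SLn r F, (x : Matrix (Fin r) (Fin r) F) ^ r = 1 →
      (∀ z : F, (x : Matrix (Fin r) (Fin r) F) ≠ z • (1 : Matrix (Fin r) (Fin r) F)) →
      ∃ g ∈ SLn r F, g⁻¹ * x * g ∈ HU r F q₀

/-- Membership in `SLn`. -/
theorem mem_SLn_iff {F : Type u} [Field F] {n : ℕ} (x : GL (Fin n) F) :
    x ∈ SLn n F ↔ (x : Matrix (Fin n) (Fin n) F).det = 1 := by
  unfold SLn Cfsg.Geo.specialLinear
  rw [MonoidHom.mem_ker, Units.ext_iff, Matrix.GeneralLinearGroup.val_det_apply, Units.val_one]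

end Cfsg.Agent.Lib.Helper85.USim
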