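import Mathlib
import Cfsg.Agent.Lib.Helper85.USim.Defs
import Cfsg.Agent.Lib.Helper45.HermBasic
import Cfsg.Agent.Lib.Helper40.Subf5
import Cfsg.Agent.Lib.Helper40.Subf6

/-!
# USIM: final assembly of S5982 from the packages
-/

set_option autoImplicit false
open scoped MatrixGroups

namespace Cfsg.Agent.Lib.Helper85.USim

universe u

/-- `SLn` is normal. -/
theorem SLn_normal {F : Type u} [Field F] (n : ℕ) : (SLn n F).Normal := by
  unfold SLn Cfsg.Geo.specialLinear
  exact MonoidHom.normal_ker _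

/-- Conjugates of scalar matrices. -/
theorem conj_scalar {F : Type u} [Field F] {n : ℕ} (P y : GL (Fin n) F) (z : F)
    (h : (y : Matrix (Fin n) (Fin n) F) = z • (1 : Matrix (Fin n) (Fin n) F)) :
    ((P * y * P⁻¹ : GL (Fin n) F) : Matrix (Fin n) (Fin n) F) =
      z • (1 : Matrix (Fin n) (Fin n) F) := by
  rw [Units.val_mul, Units.val_mul, h, Matrix.mul_smul, Matrix.mul_one, Matrix.smul_mul,
    ← Units.val_mul, mul_inv_cancel, Units.val_one]

/-- The core equivalence for the standard form. -/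
theorem core_iff (hIdx : PIdx.{u}) (hDer : PDer.{u}) (hDIrr : PDIrr.{u}) (hNSq : PNSq.{u})
    (hInvOdd : PInvOdd.{u}) (hInvEven : PInvEven.{u}) (hSpecial : PSpecial.{u})
    {F : Type u} [Field F] [Fintype F] {p : ℕ} [Fact p.Prime] [CharP F p] (q₀ : ℕ)
    (hF : Fintype.card F = q₀ ^ 2) (n : ℕ) (hn : 3 ≤ n) (r : ℕ) [Fact r.Prime]
    (hr : r = 2 ∨ r ≠ p) (hgap : ¬ (n = 6 ∧ r = 3))
    (hΩ : r ∣ (HU n F q₀).relIndex (SLn n F)) :
    (∀ x ∈ SLn n F,
      (∃ z : F, ((x ^ r : GL (Fin n) F) : Matrix (Fin n) (Fin n) F) =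
        z • (1 : Matrix (Fin n) (Fin n) F)) →
      (∀ z : F, (x : Matrix (Fin n) (Fin n) F) ≠ z • (1 : Matrix (Fin n) (Fin n) F)) →
      ∃ g ∈ SLn n F, g⁻¹ * x * g ∈ HU n F q₀) ↔
    ((r = 2 ∧ (p = 2 ∨ padicValNat 2 n ≤ padicValNat 2 (q₀ ^ 2 - 1))) ∨
      ((r = 3 ∨ r = 5) ∧ n = r ∧ padicValNat r (q₀ - 1) = 1)) := by
  classical
  have hp : p.Prime := Fact.out
  have hrP : r.Prime := Fact.out
  have hn1 : 1 ≤ n := by omega
  obtain ⟨q, hqdef⟩ : ∃ q, q = q₀ ^ 2 := ⟨_, rfl⟩
  have hq : Fintype.card F = q := by rw [hqdef]; exact hF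
  have hq2 : 2 ≤ q := by rw [← hq]; exact Fintype.one_lt_card
  have hq1 : 1 ≤ q := by omega
  have hq₀2 : 2 ≤ q₀ := Cfsg.Agent.Lib.Helper45.two_le_q hF
  have hq₀1 : 1 ≤ q₀ := by omega
  have hfac : q - 1 = (q₀ + 1) * (q₀ - 1) := by
    rw [hqdef]
    obtain ⟨t, rfl⟩ : ∃ t, q₀ = t + 1 := ⟨q₀ - 1, by omega⟩
    simp only [Nat.add_sub_cancel]
    have h5 : (t + 1) ^ 2 = (t + 1 + 1) * t + 1 := by ring
    rw [h5, Nat.add_sub_cancel]
  have hdvdQ : ∀ a : ℕ, ((a : ℕ) : ZMod r) = 0 ↔ r ∣ a := fun a => ZMod.natCast_eq_zero_iff a r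
  have hqQ : ((q : ℕ) : ZMod r) = (-((q₀ : ℕ) : ZMod r)) ^ 2 := by
    rw [hqdef]
    push_cast
    ring
  have h2F_of : p ≠ 2 → (2 : F) ≠ 0 := by
    intro hp2 h
    have h3 : ((2 : ℕ) : F) = 0 := by exact_mod_cast h
    rw [CharP.cast_eq_zero_iff F p] at h3
    exact hp2 ((Nat.prime_dvd_prime_iff_eq hp Nat.prime_two).1 h3)
  have hqodd_of : (2 : F) ≠ 0 → Odd q := by
    intro h2F
    rw [← Nat.not_even_iff_odd]
    intro he
    have h1 : ringChar F = 2 :=
      FiniteField.even_card_iff_char_two.2 (by rw [hq]; exact Nat.even_iff.1 he)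
    have : CharP F 2 := ringChar.of_eq h1
    exact h2F CharTwo.two_eq_zero
  rw [← hqdef]
  constructor
  · intro hall
    by_contra hnot
    rw [not_or] at hnot
    obtain ⟨hn1', hns⟩ := hnot
    by_cases hr2 : r = 2
    · subst hr2
      have hp2 : p ≠ 2 := fun h => hn1' ⟨rfl, Or.inl h⟩
      have hv : ¬ padicValNat 2 n ≤ padicValNat 2 (q - 1) := fun h => hn1' ⟨rfl, Or.inr h⟩
      have h2F : (2 : F) ≠ 0 := h2F_of hp2
      have hqodd : Odd q := hqodd_of h2F
      have h2q : 2 ∣ q - 1 := by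
        obtain ⟨m, hm⟩ := hqodd
        omega
      obtain ⟨x₀, c, hc, hxc⟩ := Cfsg.Agent.Lib.Helper40.Elusive.exists_not_pow_SL hq (n := n)
        (r := 2) (by omega) h2q (fun h => hv h.1)
      obtain ⟨x, hx⟩ : ∃ x : GL (Fin n) F,
          (x : Matrix (Fin n) (Fin n) F) = (x₀ : Matrix (Fin n) (Fin n) F) :=
        ⟨Matrix.GeneralLinearGroup.mkOfDetNeZero (x₀ : Matrix (Fin n) (Fin n) F)
          (by rw [x₀.det_coe]; exact one_ne_zero), rfl⟩
      have hxS : x ∈ SLn n F := by
        rw [mem_SLn_iff, hx]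
        exact x₀.det_coe
      have hnsc : ∀ z : F,
          (x : Matrix (Fin n) (Fin n) F) ≠ z • (1 : Matrix (Fin n) (Fin n) F) := by
        intro z hz
        rw [hx] at hz
        rw [hz, _root_.smul_pow, one_pow] at hxc
        exact hc z (Cfsg.Agent.Lib.Helper40.PGLClasses.scalar_inj (by omega) _ _ hxc)
      obtain ⟨g, hg, hgx⟩ := hall x hxS ⟨c, by rw [Units.val_pow_eq_pow_val, hx]; exact hxc⟩ hnsc
      obtain ⟨b, hb⟩ := hNSq q₀ n hF h2F hn1 x g c (by rw [hx]; exact hxc) hgx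
      exact hc b (by rw [hb, pow_two])
    · have hrp : r ≠ p := by
        rcases hr with h | h
        · exact absurd h hr2
        · exact h
      have hqr := Cfsg.Agent.Lib.Helper40.Subf5.natCast_card_ne_zero hq r hrp
      have hQ0 : ((q₀ : ℕ) : ZMod r) ≠ 0 := by
        intro h
        rw [hqQ, h, neg_zero, zero_pow two_ne_zero] at hqr
        exact hqr rfl
      obtain ⟨i, hi1, hin', hi⟩ := hIdx q₀ n r hF hQ0 hΩ
      have hm1 : (-1 : ZMod r) ≠ 1 := by
        intro h
        have h2 : ((2 : ℕ) : ZMod r) = 0 := by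
          push_cast
          linear_combination -h
        rw [hdvdQ] at h2
        exact hr2 ((Nat.prime_dvd_prime_iff_eq hrP Nat.prime_two).1 h2)
      have hqi : ((q : ℕ) : ZMod r) ^ i = 1 := by
        rw [hqQ, ← pow_mul, mul_comm, pow_mul, hi]
        ring
      have hoi : orderOf ((q : ℕ) : ZMod r) ∣ i := orderOf_dvd_of_pow_eq_one hqi
      have hin : orderOf ((q : ℕ) : ZMod r) ≤ n := le_trans (Nat.le_of_dvd (by omega) hoi) hin'
      have hC : (-((q₀ : ℕ) : ZMod r)) ^ orderOf ((q : ℕ) : ZMod r) ≠ 1 := by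
        intro h
        obtain ⟨t, ht⟩ := hoi
        apply hm1
        rw [← hi, ht, pow_mul, h, one_pow]
      by_cases hi2 : 2 ≤ orderOf ((q : ℕ) : ZMod r)
      · obtain ⟨x, hx0, hx1, hx2, hx3⟩ := hDIrr p q₀ n r hF hrp (by rw [← hqdef]; exact hi2)
          (by rw [← hqdef]; exact hin) (by rw [← hqdef]; exact hC)
        obtain ⟨g, hg, hgx⟩ := hall x hx0 hx1 hx2
        exact hx3 g hg hgx
      · have hipos := Cfsg.Agent.Lib.Helper40.Elusive.orderOf_pos_of_ne hq r hrp
        have hi1' : orderOf ((q : ℕ) : ZMod r) = 1 := by omega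
        rw [hi1', pow_one] at hC
        have hqr1 : ((q : ℕ) : ZMod r) = 1 := orderOf_eq_one_iff.1 hi1'
        have hrq : r ∣ q - 1 := by
          rw [← hdvdQ, Nat.cast_sub hq1, hqr1]
          simp
        obtain ⟨ω, hω, hωc⟩ := Cfsg.Agent.Lib.Helper40.Subf5.exists_omega hq r hrq hq2
        have hQ1 : ((q₀ : ℕ) : ZMod r) = 1 := by
          have h1 : (((q₀ : ℕ) : ZMod r) - 1) * (((q₀ : ℕ) : ZMod r) + 1) = 0 := by
            have h2 := hqr1
            rw [hqQ] at h2
            linear_combination h2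
          rcases mul_eq_zero.1 h1 with h | h
          · exact sub_eq_zero.1 h
          · exfalso
            apply hC
            linear_combination -h
        have hrq₀ : r ∣ q₀ - 1 := by
          rw [← hdvdQ, Nat.cast_sub hq₀1, hQ1]
          simp
        obtain ⟨m, rfl⟩ : ∃ m, n = m + 3 := ⟨n - 3, by omega⟩
        have hD := hDer q₀ r hF ω hω hC m
        have hspecial : (r = 3 ∨ r = 5) → m + 3 = r → (¬ ∃ c : F, c ^ (m + 3) * ω = 1) →
            False := by
          intro h35 hmr hc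
          apply hns
          refine ⟨h35, hmr, ?_⟩
          have h2 : ¬ r ^ 2 ∣ q₀ - 1 := by
            intro h
            apply hc
            have h3 : r ^ 2 ∣ q - 1 := by
              rw [hfac]
              exact Dvd.dvd.mul_left h _
            obtain ⟨c, hc'⟩ := hωc h3
            exact ⟨c, by rw [hmr]; exact hc'⟩
          have hq₀pos : q₀ - 1 ≠ 0 := by omega
          have h5 := (padicValNat_dvd_iff_le (p := r) (a := q₀ - 1) (n := 1) hq₀pos).1
            (by rwa [pow_one])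
          have h6 : ¬ 2 ≤ padicValNat r (q₀ - 1) := fun h =>
            h2 ((padicValNat_dvd_iff_le hq₀pos).2 h)
          omega
        by_cases hr3 : r = 3
        · by_cases hm0 : m = 0
          · by_cases hc : ∃ c : F, c ^ (m + 3) * ω = 1
            · obtain ⟨c, hc⟩ := hc
              obtain ⟨x, hx0, hx1, hx2, hx3⟩ := hD.2.1 c hc
              obtain ⟨g, hg, hgx⟩ := hall x hx0 hx1 hx2
              exact hx3 g hg hgx
            · exact hspecial (Or.inl hr3) (by omega) hc
          · by_cases hm3 : m = 3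
            · exact hgap ⟨by omega, hr3⟩
            · obtain ⟨x, hx0, hx1, hx2, hx3⟩ := hD.2.2 hr3 hm0 hm3
              obtain ⟨g, hg, hgx⟩ := hall x hx0 hx1 hx2
              exact hx3 g hg hgx
        · have hr5 : 5 ≤ r := by
            have hr3' : 3 ≤ r := lt_of_le_of_ne hrP.two_le (Ne.symm hr2)
            by_contra h
            have h4 : r = 4 := by omega
            rw [h4] at hrP
            exact absurd hrP (by norm_num)
          by_cases h55 : m = 2 ∧ r = 5
          · by_cases hc : ∃ c : F, c ^ (m + 3) * ω = 1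
            · obtain ⟨c, hc⟩ := hc
              obtain ⟨x, hx0, hx1, hx2, hx3⟩ := hD.2.1 c hc
              obtain ⟨g, hg, hgx⟩ := hall x hx0 hx1 hx2
              exact hx3 g hg hgx
            · exact hspecial (Or.inr h55.2) (by omega) hc
          · obtain ⟨x, hx0, hx1, hx2, hx3⟩ := hD.1 hr5 h55
            obtain ⟨g, hg, hgx⟩ := hall x hx0 hx1 hx2
            exact hx3 g hg hgx
  · rintro (⟨hr2, hcond⟩ | ⟨h35, hnr, hv⟩)
    · subst hr2
      intro x hxS hz hnsc
      obtain ⟨z, hz⟩ := hz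
      rw [Units.val_pow_eq_pow_val, pow_two] at hz
      by_cases hp2 : p = 2
      · have h2F : (2 : F) = 0 := by
          have h3 : ((2 : ℕ) : F) = 0 := by
            rw [CharP.cast_eq_zero_iff F p, hp2]
          exact_mod_cast h3
        exact hInvEven q₀ n hF h2F (by omega) x hxS z hz hnsc
      · have hv : padicValNat 2 n ≤ padicValNat 2 (q - 1) := by
          rcases hcond with h | h
          · exact absurd h hp2
          · exact h
        have h2F : (2 : F) ≠ 0 := h2F_of hp2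
        have hqodd : Odd q := hqodd_of h2F
        have hq₀odd : Odd q₀ := by
          rw [hqdef] at hqodd
          exact (Nat.odd_pow_iff two_ne_zero).1 hqodd
        have hq4 : q % 4 = 1 := by
          rw [hqdef]
          obtain ⟨m, rfl⟩ := hq₀odd
          have : (2 * m + 1) ^ 2 = 4 * (m * (m + 1)) + 1 := by ring
          omega
        have hdet : (x : Matrix (Fin n) (Fin n) F).det = 1 := (mem_SLn_iff x).1 hxS
        obtain ⟨b, hb⟩ : ∃ b : F, b ^ 2 = z := by
          by_contra hno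
          push Not at hno
          exact Cfsg.Agent.Lib.Helper40.Elusive.not_pow_SL hq (r := 2) (by omega)
            ⟨(x : Matrix (Fin n) (Fin n) F), hdet⟩ z hno
            (by rw [pow_two]; exact hz) ⟨hv, fun _ _ => hq4⟩
        have hne : Nonempty (Fin n) := ⟨⟨0, by omega⟩⟩
        have hb0 : b ≠ 0 := by
          rintro rfl
          rw [← hb, zero_pow (by norm_num), zero_smul] at hz
          have h3 := congrArg Matrix.det hz
          rw [Matrix.det_mul, hdet, Matrix.det_zero] at h3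
          simp at h3
        exact hInvOdd q₀ n hF h2F hn1 x hxS b hb0 (by rw [hz, ← hb, pow_two])
    · have hrn : r = n := hnr.symm
      subst hrn
      intro x hxS hz hnsc
      obtain ⟨z, hz⟩ := hz
      rw [Units.val_pow_eq_pow_val] at hz
      have hr2 : r ≠ 2 := by
        rcases h35 with h | h <;> omega
      have hrp : r ≠ p := by
        rcases hr with h | h
        · exact absurd h hr2
        · exact h
      have hrq₀ : r ∣ q₀ - 1 := dvd_of_one_le_padicValNat (by omega)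
      have hQ1 : ((q₀ : ℕ) : ZMod r) = 1 := by
        have h1 := (hdvdQ (q₀ - 1)).2 hrq₀
        rw [Nat.cast_sub hq₀1] at h1
        push_cast at h1
        exact sub_eq_zero.1 h1
      have hr2' : ¬ r ^ 2 ∣ q₀ - 1 := by
        intro h
        have := (padicValNat_dvd_iff_le (by omega)).1 h
        omega
      have hrq : r ∣ q - 1 := by
        rw [hfac]
        exact Dvd.dvd.mul_left hrq₀ _
      have hnd : ¬ r ∣ q₀ + 1 := by
        intro h
        have h2 : r ∣ 2 := by
          have h3 : q₀ + 1 = (q₀ - 1) + 2 := by omega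
          rw [h3] at h
          exact (Nat.dvd_add_right hrq₀).1 h
        exact hr2 ((Nat.prime_dvd_prime_iff_eq hrP Nat.prime_two).1 h2)
      have hr2q : ¬ r ^ 2 ∣ q - 1 := by
        rw [hfac]
        intro h
        have hcop : (r ^ 2).Coprime (q₀ + 1) :=
          Nat.Coprime.pow_left 2 ((Nat.Prime.coprime_iff_not_dvd hrP).2 hnd)
        exact hr2' (hcop.dvd_of_dvd_mul_left h)
      obtain ⟨ω, hω, -⟩ := Cfsg.Agent.Lib.Helper40.Subf5.exists_omega hq r hrq hq2
      have hdet : (x : Matrix (Fin r) (Fin r) F).det = 1 := (mem_SLn_iff x).1 hxS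
      have hne : Nonempty (Fin r) := ⟨⟨0, by omega⟩⟩
      have hz0 : z ≠ 0 := by
        rintro rfl
        have h1 := congrArg Matrix.det hz
        rw [Matrix.det_pow, hdet, one_pow, zero_smul, Matrix.det_zero] at h1
        exact one_ne_zero h1
      have hzp : ∃ c : F, c ^ r = z := by
        by_contra hzp
        have h1 : padicValNat r r ≤ padicValNat r (q - 1) := by
          rw [padicValNat_self]
          exact one_le_padicValNat_of_dvd (by omega) hrq
        exact Cfsg.Agent.Lib.Helper40.Elusive.not_pow_SL hq (by omega)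
          ⟨(x : Matrix (Fin r) (Fin r) F), hdet⟩ z
          (fun b hb => hzp ⟨b, hb⟩) hz ⟨h1, fun h => absurd h hr2⟩
      obtain ⟨c, rfl⟩ := hzp
      have hc0 : c ≠ 0 := fun h => hz0 (by rw [h, zero_pow hrP.ne_zero])
      have hcr : c ^ r = 1 := by
        have h1 : (c ^ r) ^ r = 1 := by
          have h2 := congrArg Matrix.det hz
          rw [Matrix.det_pow, hdet, one_pow, Matrix.det_smul, Matrix.det_one, mul_one,
            Fintype.card_fin] at h2
          exact h2.symm
        have h3 : c ^ (q - 1) = 1 := by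
          rw [← hq]
          exact FiniteField.pow_card_sub_one_eq_one c hc0
        rw [← pow_mul] at h1
        have h4 := pow_gcd_eq_one.2 ⟨h1, h3⟩
        have h5 : (r * r).gcd (q - 1) ∣ r := by
          obtain ⟨j, hj, hj'⟩ := (Nat.dvd_prime_pow hrP).1
            (show (r * r).gcd (q - 1) ∣ r ^ 2 by rw [pow_two]; exact Nat.gcd_dvd_left _ _)
          interval_cases j
          · rw [hj']
            simp
          · rw [hj']
            simp
          · exfalso
            apply hr2q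
            rw [← hj']
            exact Nat.gcd_dvd_right _ _
        obtain ⟨w, hw⟩ := h5
        rw [hw, pow_mul, h4, one_pow]
      rw [hcr, one_smul] at hz
      have hcomb : ∀ M : ZMod r → ℕ, ∑ u, M u = r → ∑ u, (M u : ZMod r) * u = 0 →
          (∀ u, M u ≠ r) → ∃ t : ZMod r, ∀ u, M (t + u) = M (t - u) := by
        rcases h35 with h | h
        · subst h
          exact Cfsg.Agent.Lib.Helper40.Subf5.comb3
        · subst h
          exact Cfsg.Agent.Lib.Helper40.Subf5.comb5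
      exact hSpecial q₀ r hF ω hω hQ1 hcomb x hxS hz hnsc

/-- S5982 from the packages. -/
theorem s5982_of (hStd : PStd.{u}) (hRed : PRed.{u}) (hIdx : PIdx.{u}) (hDer : PDer.{u})
    (hDIrr : PDIrr.{u}) (hNSq : PNSq.{u}) (hInvOdd : PInvOdd.{u}) (hInvEven : PInvEven.{u})
    (hSpecial : PSpecial.{u})
    {F : Type u} [Field F] [Fintype F] {p : ℕ} [Fact p.Prime] [CharP F p] {q : ℕ}
    (hq : Fintype.card F = q) (q₀ : ℕ) (hq₀ : q = q₀ ^ 2) (n : ℕ) (hn : 3 ≤ n)
    (f : (Fin n → F) → (Fin n → F) → F) (hf : Cfsg.Geo.IsUnitaryFormPow q₀ f)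
    (r : ℕ) [Fact r.Prime] (hr : r = 2 ∨ r ≠ p) (hgap : ¬ (n = 6 ∧ r = 3))
    (hΩ : r ∣ (Cfsg.Geo.similarityGroup f).relIndex (Cfsg.Geo.specialLinear (Fin n) F)) :
    (∀ x ∈ Cfsg.Geo.specialLinear (Fin n) F,
      (∃ z : F, ((x ^ r : GL (Fin n) F) : Matrix (Fin n) (Fin n) F) =
        z • (1 : Matrix (Fin n) (Fin n) F)) →
      (∀ z : F, (x : Matrix (Fin n) (Fin n) F) ≠ z • (1 : Matrix (Fin n) (Fin n) F)) →
      ∃ g ∈ Cfsg.Geo.specialLinear (Fin n) F, g⁻¹ * x * g ∈ Cfsg.Geo.similarityGroup f) ↔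
    ((r = 2 ∧ (p = 2 ∨ padicValNat 2 n ≤ padicValNat 2 (q - 1))) ∨
      ((r = 3 ∨ r = 5) ∧ n = r ∧ padicValNat r (q₀ - 1) = 1)) := by
  subst hq₀
  obtain ⟨P, hP⟩ := hStd q₀ n hq f hf
  obtain ⟨hmemf, hidx⟩ := hRed q₀ n f P hP
  rw [hidx] at hΩ
  rw [← core_iff hIdx hDer hDIrr hNSq hInvOdd hInvEven hSpecial q₀ hq n hn r hr hgap hΩ]
  have hN := SLn_normal (F := F) n
  constructor
  · intro hall x' hx' hz' hns'
    have hxS : P * x' * P⁻¹ ∈ SLn n F := hN.conj_mem x' hx' P
    obtain ⟨z, hz⟩ := hz'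
    have hz2 : (((P * x' * P⁻¹) ^ r : GL (Fin n) F) : Matrix (Fin n) (Fin n) F) =
        z • (1 : Matrix (Fin n) (Fin n) F) := by
      rw [conj_pow]
      exact conj_scalar P (x' ^ r) z hz
    have hns2 : ∀ z : F, ((P * x' * P⁻¹ : GL (Fin n) F) : Matrix (Fin n) (Fin n) F) ≠
        z • (1 : Matrix (Fin n) (Fin n) F) := by
      intro z hz3
      apply hns' z
      have h1 := conj_scalar P⁻¹ (P * x' * P⁻¹) z hz3
      have h2 : P⁻¹ * (P * x' * P⁻¹) * P⁻¹⁻¹ = x' := by group
      rw [h2] at h1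
      exact h1
    obtain ⟨g, hg, hgx⟩ := hall (P * x' * P⁻¹) hxS ⟨z, hz2⟩ hns2
    refine ⟨P⁻¹ * g * P, ?_, ?_⟩
    · have h1 := hN.conj_mem g hg P⁻¹
      rw [inv_inv] at h1
      exact h1
    · have h1 := (hmemf _).1 hgx
      have h2 : P⁻¹ * (g⁻¹ * (P * x' * P⁻¹) * g) * P = (P⁻¹ * g * P)⁻¹ * x' * (P⁻¹ * g * P) := by
        group
      rw [h2] at h1
      exact h1
  · intro hall x hx hz hns
    have hxS : P⁻¹ * x * P ∈ SLn n F := by
      have h1 := hN.conj_mem x hx P⁻¹
      rw [inv_inv] at h1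
      exact h1
    obtain ⟨z, hz⟩ := hz
    have hz2 : (((P⁻¹ * x * P) ^ r : GL (Fin n) F) : Matrix (Fin n) (Fin n) F) =
        z • (1 : Matrix (Fin n) (Fin n) F) := by
      have h1 := conj_scalar P⁻¹ (x ^ r) z hz
      rw [inv_inv] at h1
      have h2 : (P⁻¹ * x * P) ^ r = P⁻¹ * x ^ r * P := by
        have h3 := conj_pow (a := P⁻¹) (b := x) (i := r)
        rw [inv_inv] at h3
        exact h3
      rw [h2]
      exact h1
    have hns2 : ∀ z : F, ((P⁻¹ * x * P : GL (Fin n) F) : Matrix (Fin n) (Fin n) F) ≠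
        z • (1 : Matrix (Fin n) (Fin n) F) := by
      intro z hz3
      apply hns z
      have h1 := conj_scalar P (P⁻¹ * x * P) z hz3
      have h2 : P * (P⁻¹ * x * P) * P⁻¹ = x := by group
      rw [h2] at h1
      exact h1
    obtain ⟨g', hg', hgx'⟩ := hall (P⁻¹ * x * P) hxS ⟨z, hz2⟩ hns2
    refine ⟨P * g' * P⁻¹, hN.conj_mem g' hg' P, ?_⟩
    apply (hmemf _).2
    have h2 : P⁻¹ * ((P * g' * P⁻¹)⁻¹ * x * (P * g' * P⁻¹)) * P = g'⁻¹ * (P⁻¹ * x * P) * g' := by
      group
    rw [h2]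
    exact hgx'

end Cfsg.Agent.Lib.Helper85.USim
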