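import Mathlib
import Cfsg.Agent.Lib.Helper85.USim.Defs
import Cfsg.Agent.Lib.Helper45.HermBasic

/-!
# USIM: [MEM]
-/

set_option autoImplicit false
open scoped MatrixGroups

namespace Cfsg.Agent.Lib.Helper85.USim

universe u

open Matrix in
/-- The hermitian form of two images, in matrix form. -/
theorem herm_mulVec {F : Type u} [Field F] [Fintype F] {q₀ n : ℕ} (hF : Fintype.card F = q₀ ^ 2)
    (Y : Matrix (Fin n) (Fin n) F) (u v : Fin n → F) :
    Cfsg.hermForm n F q₀ (Y *ᵥ u) (Y *ᵥ v) =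
      u ⬝ᵥ ((Yᵀ * Y.map (fun a => a ^ q₀)) *ᵥ (fun j => v j ^ q₀)) := by
  have h1 : Cfsg.hermForm n F q₀ (Y *ᵥ u) (Y *ᵥ v) =
      (Y *ᵥ u) ⬝ᵥ (fun i => ((Y *ᵥ v) i) ^ q₀) := rfl
  have h2 : (fun i => ((Y *ᵥ v) i) ^ q₀) = (Y.map (fun a => a ^ q₀)) *ᵥ (fun j => v j ^ q₀) := by
    funext i
    simp only [Matrix.mulVec, dotProduct, Matrix.map_apply]
    rw [Cfsg.Agent.Lib.Helper45.conj_sum hF]
    apply Finset.sum_congr rfl
    intro j _
    rw [mul_pow]
  rw [h1, h2]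
  calc (Y *ᵥ u) ⬝ᵥ ((Y.map (fun a => a ^ q₀)) *ᵥ (fun j => v j ^ q₀))
      = (u ᵥ* Yᵀ) ⬝ᵥ ((Y.map (fun a => a ^ q₀)) *ᵥ (fun j => v j ^ q₀)) := by
        rw [Matrix.vecMul_transpose]
    _ = u ⬝ᵥ (Yᵀ *ᵥ ((Y.map (fun a => a ^ q₀)) *ᵥ (fun j => v j ^ q₀))) :=
        (Matrix.dotProduct_mulVec _ _ _).symm
    _ = u ⬝ᵥ ((Yᵀ * Y.map (fun a => a ^ q₀)) *ᵥ (fun j => v j ^ q₀)) := by
        rw [Matrix.mulVec_mulVec]

open Matrix in
/-- **[MEM]** -/
theorem pMem : PMem.{u} := by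
  intro F _ _ q₀ n hF Y
  classical
  have hq2 : 2 ≤ q₀ := Cfsg.Agent.Lib.Helper45.two_le_q hF
  constructor
  · rintro ⟨c, hc⟩
    refine ⟨(c : F), c.ne_zero, ?_⟩
    ext i j
    have h := hc (Pi.single i 1) (Pi.single j 1)
    rw [herm_mulVec hF] at h
    have h3 : (fun k => (Pi.single j (1 : F) : Fin n → F) k ^ q₀) = Pi.single j 1 := by
      funext k
      by_cases hk : k = j
      · subst hk
        simp
      · simp [Pi.single_eq_of_ne hk, zero_pow (show q₀ ≠ 0 by omega)]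
    rw [h3, Matrix.mulVec_single_one, single_one_dotProduct, Matrix.col_apply] at h
    rw [h, Matrix.smul_apply, Matrix.one_apply, Cfsg.Agent.Lib.Helper45.herm_def]
    simp only [smul_eq_mul]
    congr 1
    by_cases hij : i = j
    · subst hij
      rw [if_pos rfl, Finset.sum_eq_single i]
      · simp
      · intro b _ hb
        simp [Pi.single_eq_of_ne hb]
      · intro h'
        exact absurd (Finset.mem_univ _) h'
    · rw [if_neg hij]
      apply Finset.sum_eq_zero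
      intro b _
      by_cases hb : b = i
      · subst hb
        simp [Pi.single_eq_of_ne hij, zero_pow (show q₀ ≠ 0 by omega)]
      · simp [Pi.single_eq_of_ne hb]
  · rintro ⟨τ, hτ, hY⟩
    refine ⟨Units.mk0 τ hτ, fun u v => ?_⟩
    rw [herm_mulVec hF, hY, Matrix.smul_mulVec, Matrix.one_mulVec, dotProduct_smul]
    rfl

end Cfsg.Agent.Lib.Helper85.USim
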